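import Cfsg.Agent.Lib.Coset.Words
import Mathlib.GroupTheory.Commutator.Basic

/-!
# Moves between words in the letters of the diagram of Fi23

A certificate is a list of moves: deleting a square, exchanging two commuting letters, and a braid move.
-/

set_option autoImplicit false

namespace Cfsg.Agent.Lib.SporPres.FiTwentyThree.Lift

open Cfsg.Agent.Lib.Coset

/-- Adjacent letters. -/
def joined (a b : ℕ) : Bool :=
  [(0, 1), (1, 2), (2, 3), (3, 4), (4, 5), (5, 6), (6, 9), (3, 7), (7, 8)].any
    fun e => (Nat.beq e.1 a && Nat.beq e.2 b) || (Nat.beq e.2 a && Nat.beq e.1 b)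

/-- Distinct letters which commute. -/
def apart (a b : ℕ) : Bool := decide (a < 10) && decide (b < 10) && !Nat.beq a b && !joined a b

/-- A move at the front of a word. -/
def front : ℕ → List ℕ → Option (List ℕ)
  | 0, a :: b :: l => if Nat.beq a b && decide (a < 10) then some l else none
  | 1, a :: b :: l => if apart a b then some (b :: a :: l) else none
  | 2, a :: b :: c :: l => if Nat.beq a c && joined a b then some (b :: a :: b :: l) else none
  | _, _ => none

/-- A move at a position. -/
def moveAt : ℕ → ℕ → List ℕ → Option (List ℕ)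
  | 0, kind, l => front kind l
  | p + 1, kind, a :: l => (moveAt p kind l).map (a :: ·)
  | _ + 1, _, [] => none

/-- A list of coded moves. -/
def moves : List ℕ → List ℕ → Option (List ℕ)
  | [], w => some w
  | m :: ms, w => (moveAt (m / 3) (m % 3) w).bind (moves ms)

/-- A rotation, or an exchange of commuting letters. -/
def rotMove : ℕ → List ℕ → Option (List ℕ)
  | 0, a :: l => some (l ++ [a])
  | 0, [] => none
  | p + 1, l => moveAt p 1 l

/-- A list of rotations and exchanges. -/
def rotMoves : List ℕ → List ℕ → Option (List ℕ)
  | [], w => some w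
  | m :: ms, w => (rotMove m w).bind (rotMoves ms)

variable {E : Type*} [Group E] {x : ℕ → E}

theorem moveAt_spec (kind : ℕ)
    (h : ∀ l l', front kind l = some l' → ev x l = ev x l') :
    ∀ (p : ℕ) (l l' : List ℕ), moveAt p kind l = some l' → ev x l = ev x l'
  | 0, l, l', he => h l l' he
  | p + 1, [], l', he => by simp [moveAt] at he
  | p + 1, a :: l, l', he => by
    simp only [moveAt, Option.map_eq_some_iff] at he
    obtain ⟨u, hu, rfl⟩ := he
    rw [ev_cons, ev_cons, moveAt_spec kind h p l u hu]

theorem front_one (hc : ∀ a b, apart a b = true → Commute (x a) (x b)) :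
    ∀ l l', front 1 l = some l' → ev x l = ev x l'
  | [], l', h => by simp [front] at h
  | [a], l', h => by simp [front] at h
  | a :: b :: l, l', h => by
    simp only [front, Option.ite_none_right_eq_some, Option.some.injEq] at h
    obtain ⟨h, rfl⟩ := h
    rw [ev_cons, ev_cons, ev_cons, ev_cons, ← mul_assoc, (hc a b h).eq, mul_assoc]

theorem moves_spec (hs : ∀ a, a < 10 → x a * x a = 1) (hc : ∀ a b, apart a b = true → Commute (x a) (x b))
    (hb : ∀ a b, joined a b = true → x a * x b * x a = x b * x a * x b) :
    ∀ (ms w w' : List ℕ), moves ms w = some w' → ev x w = ev x w'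
  | [], w, w', h => by simp only [moves, Option.some.injEq] at h; rw [h]
  | m :: ms, w, w', h => by
    simp only [moves, Option.bind_eq_some_iff] at h
    obtain ⟨u, hu, hu'⟩ := h
    rw [← moves_spec hs hc hb ms u w' hu']
    refine moveAt_spec _ (fun l l' he => ?_) _ _ _ hu
    have hlt : m % 3 < 3 := Nat.mod_lt _ (by norm_num)
    interval_cases hk : m % 3
    · match l, he with
      | a :: b :: r, he =>
        simp only [front, Option.ite_none_right_eq_some, Option.some.injEq, Bool.and_eq_true,
          decide_eq_true_eq, Nat.beq_eq] at he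
        obtain ⟨⟨rfl, ha⟩, rfl⟩ := he
        rw [ev_cons, ev_cons, ← mul_assoc, hs a ha, one_mul]
      | [], he => simp [front] at he
      | [a], he => simp [front] at he
    · exact front_one hc l l' he
    · match l, he with
      | a :: b :: c :: r, he =>
        simp only [front, Option.ite_none_right_eq_some, Option.some.injEq, Bool.and_eq_true,
          Nat.beq_eq] at he
        obtain ⟨⟨rfl, hj⟩, rfl⟩ := he
        rw [ev_cons, ev_cons, ev_cons, ev_cons, ev_cons, ev_cons, ← mul_assoc, ← mul_assoc, hb a b hj,
          mul_assoc, mul_assoc]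
      | [], he => simp [front] at he
      | [a], he => simp [front] at he
      | [a, b], he => simp [front] at he

theorem rotMoves_spec (hc : ∀ a b, apart a b = true → Commute (x a) (x b)) {n : ℕ} :
    ∀ (ms w w' : List ℕ), rotMoves ms w = some w' → (∀ g, Commute (ev x w ^ n) g) →
      ev x w' ^ n = ev x w ^ n
  | [], w, w', h, _ => by simp only [rotMoves, Option.some.injEq] at h; rw [h]
  | m :: ms, w, w', h, hcen => by
    simp only [rotMoves, Option.bind_eq_some_iff] at h
    obtain ⟨u, hu, hu'⟩ := h
    have key : ev x u ^ n = ev x w ^ n := by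
      match m, w, hu with
      | 0, [], hu => simp [rotMove] at hu
      | 0, a :: l, hu =>
        simp only [rotMove, Option.some.injEq] at hu
        subst hu
        rw [ev_append, ev_cons, ev_nil, mul_one,
          show ev x l * x a = (x a)⁻¹ * ev x (a :: l) * ((x a)⁻¹)⁻¹ by rw [ev_cons]; group, conj_pow,
          inv_inv, mul_assoc, (hcen (x a)).eq, inv_mul_cancel_left]
      | p + 1, w, hu => rw [moveAt_spec 1 (front_one hc) p w u hu]
    rw [rotMoves_spec hc ms u w' hu' (fun g => key ▸ hcen g), key]

/-- The commutator of two elements. -/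
def comm (a b : E) : E := a * b * a⁻¹ * b⁻¹

theorem comm_mul_right {a b c : E} (h : ∀ g, Commute (comm a c) g) :
    comm a (b * c) = comm a b * comm a c := by
  calc comm a (b * c) = comm a b * (b * comm a c * b⁻¹) := by simp only [comm]; group
    _ = comm a b * comm a c := by rw [← (h b).eq, mul_inv_cancel_right]

theorem comm_mul_left {a b c : E} (h : ∀ g, Commute (comm b c) g) :
    comm (a * b) c = comm b c * comm a c := by
  calc comm (a * b) c = a * comm b c * a⁻¹ * comm a c := by simp only [comm]; group
    _ = comm b c * comm a c := by rw [← (h a).eq, mul_inv_cancel_right]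

theorem comm_central_left {a b z : E} (hz : ∀ g, Commute z g) : comm (a * z) b = comm a b := by
  calc comm (a * z) b = a * (z * b) * z⁻¹ * a⁻¹ * b⁻¹ := by simp only [comm]; group
    _ = comm a b := by rw [(hz b).eq]; simp only [comm]; group

theorem comm_central_right {a b z : E} (hz : ∀ g, Commute z g) : comm a (b * z) = comm a b := by
  calc comm a (b * z) = a * b * (z * a⁻¹) * z⁻¹ * b⁻¹ := by simp only [comm]; group
    _ = comm a b := by rw [(hz a⁻¹).eq]; simp only [comm]; group

theorem comm_conj (g a b : E) : comm (g * a * g⁻¹) (g * b * g⁻¹) = g * comm a b * g⁻¹ := by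
  simp only [comm]; group

end Cfsg.Agent.Lib.SporPres.FiTwentyThree.Lift
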